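import Cfsg.Agent.AutChev.Rows

set_option autoImplicit false
set_option linter.unusedSectionVars false
set_option linter.unusedVariables false
set_option maxRecDepth 10000

/-!
Structure of the outer automorphism groups.
-/

namespace Cfsg.Agent.AutChev

open Cfsg.Lie Cfsg.Agent.Chev Cfsg.Agent.ChevGrp Cfsg.Agent.ChevTw Cfsg.Agent.ChevWeyl Cfsg.Agent.ChevU

section
variable {D : ChevalleyDatum} (H : Good D) {F : Type*} [Field F]

/-- composition of data -/
lemma IsDat.mul {H : Good D} {θ θ' : MulAut ↥(D.group F)} {ρ ρ' : Equiv.Perm (Fin D.rank)} {c c' : Fin D.rank → F}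
    {σ σ' : Fin D.rank → (F ≃+* F)} (h : IsDat H θ ρ c σ) (h' : IsDat H θ' ρ' c' σ') :
    IsDat H (θ * θ') (ρ * ρ') (fun i => c (ρ' i) * σ (ρ' i) (c' i)) (fun i => (σ' i).trans (σ (ρ' i))) := by
  intro i
  refine ⟨mul_ne_zero (h _).1 (by rw [ne_eq, map_eq_zero_iff _ (σ _).injective]; exact (h' i).1), fun t => ⟨?_, ?_⟩⟩
  · show θ (θ' (xG H.toGood2 (D.simple i) t)) = _
    rw [((h' i).2 t).1, ((h (ρ' i)).2 _).1, map_mul, mul_assoc]; rfl
  · show θ (θ' (xG H.toGood2 (D.neg (D.simple i)) t)) = _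
    rw [((h' i).2 t).2, ((h (ρ' i)).2 _).2, map_mul, map_inv₀, mul_inv, mul_assoc]; rfl

lemma IsDat.inv {H : Good D} {θ : MulAut ↥(D.group F)} {ρ : Equiv.Perm (Fin D.rank)} {c : Fin D.rank → F}
    {σ : Fin D.rank → (F ≃+* F)} (h : IsDat H θ ρ c σ) :
    IsDat H θ⁻¹ ρ⁻¹ (fun i => ((σ (ρ⁻¹ i)).symm (c (ρ⁻¹ i)))⁻¹) (fun i => (σ (ρ⁻¹ i)).symm) := by
  intro j
  obtain ⟨i, rfl⟩ := ρ.surjective j
  have hi : ρ⁻¹ (ρ i) = i := ρ.symm_apply_apply i
  simp only [hi]
  have hc : (σ i).symm (c i) ≠ 0 := by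
    rw [ne_eq, map_eq_zero_iff _ (σ i).symm.injective]; exact (h i).1
  refine ⟨inv_ne_zero hc, fun t => ⟨?_, ?_⟩⟩
  · apply θ.injective
    rw [((h i).2 _).1, map_mul, map_inv₀, RingEquiv.apply_symm_apply, RingEquiv.apply_symm_apply, ← mul_assoc,
      mul_inv_cancel₀ (h i).1, one_mul]
    exact MulAut.apply_inv_self _ _ _
  · apply θ.injective
    rw [((h i).2 _).2, map_mul, inv_inv, RingEquiv.apply_symm_apply, RingEquiv.apply_symm_apply, ← mul_assoc,
      inv_mul_cancel₀ (h i).1, one_mul]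
    exact MulAut.apply_inv_self _ _ _

lemma isDat_dHom (d : Fin D.rank → Fˣ) : IsDat H (dHom H d) 1 (fun i => (d i : F)) (fun _ => RingEquiv.refl F) :=
  fun i => ⟨Units.ne_zero _, fun t => ⟨dHom_simple H d i t, dHom_neg_simple H d i t⟩⟩

lemma isDat_fAut (τ : F ≃+* F) : IsDat H (fAut D τ) 1 (fun _ => 1) (fun _ => τ) :=
  fun i => ⟨one_ne_zero, fun t => ⟨by rw [fAut_xG, one_mul]; rfl, by rw [fAut_xG, inv_one, one_mul]; rfl⟩⟩

/-- field automorphisms as a homomorphism -/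
noncomputable def fMon (D : ChevalleyDatum) (F : Type*) [Field F] : (F ≃+* F) →* MulAut ↥(D.group F) where
  toFun τ := fAut D τ
  map_one' := by
    apply MulEquiv.ext; intro g
    apply Subtype.ext; apply Units.ext
    ext i j
    rfl
  map_mul' σ τ := by
    apply MulEquiv.ext; intro g
    apply Subtype.ext; apply Units.ext
    ext i j
    rfl

include H in
theorem isFieldAut_iff (φ : MulAut ↥(D.group F)) : D.IsFieldAut φ ↔ ∃ τ, φ = fMon D F τ := by
  constructor
  · rintro ⟨σ, hσ⟩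
    refine ⟨σ, ?_⟩
    have key : (φ : ↥(D.group F) →* ↥(D.group F)) = (fAut D σ : ↥(D.group F) →* ↥(D.group F)) := by
      apply aut_ext H
      intro i hi t
      constructor
      · show φ (xG H.toGood2 (D.simple i) t) = fAut D σ (xG H.toGood2 (D.simple i) t)
        rw [fAut_xG]
        exact eq_xG H.toGood2 (hσ _ _ t (H.simple_lt i hi) rfl)
      · show φ (xG H.toGood2 (D.neg (D.simple i)) t) = fAut D σ (xG H.toGood2 (D.neg (D.simple i)) t)
        rw [fAut_xG]
        exact eq_xG H.toGood2 (hσ _ _ t (Chev.neg_lt H.toGood1 (H.simple_lt i hi)) rfl)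
    apply MulEquiv.ext
    intro y
    exact DFunLike.congr_fun key y
  · rintro ⟨τ, rfl⟩
    exact isFieldAut_fAut H τ

variable (E : DData D) [Finite F]

/-- the permutation of the nodes -/
noncomputable def permHom : A0 (chevG E H F) →* Equiv.Perm (Fin D.rank) where
  toFun θ := (exists_dat H E θ.2).choose
  map_one' := by
    obtain ⟨c, σ, h⟩ := (exists_dat H E (1 : A0 (chevG E H F)).2).choose_spec
    refine (h.perm_eq fun i => ⟨1, 1, one_ne_zero, rfl⟩)
  map_mul' θ θ' := by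
    obtain ⟨c, σ, h⟩ := (exists_dat H E (θ * θ').2).choose_spec
    obtain ⟨c1, σ1, h1⟩ := (exists_dat H E θ.2).choose_spec
    obtain ⟨c2, σ2, h2⟩ := (exists_dat H E θ'.2).choose_spec
    exact (h.unique (h1.mul h2)).1

lemma permHom_eq {θ : A0 (chevG E H F)} {ρ : Equiv.Perm (Fin D.rank)} {c : Fin D.rank → F}
    {σ : Fin D.rank → (F ≃+* F)} (h : IsDat H θ.1 ρ c σ) : permHom H E θ = ρ := by
  obtain ⟨c1, σ1, h1⟩ := (exists_dat H E θ.2).choose_spec
  exact (h1.unique h).1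

lemma permHom_dat (θ : A0 (chevG E H F)) : ∃ c σ, IsDat H θ.1 (permHom H E θ) c σ :=
  (exists_dat H E θ.2).choose_spec

/-- diagonal automorphisms inside `A0` -/
noncomputable def Dg : Subgroup (A0 (chevG E H F)) := ((dHom H (F := F)).range).subgroupOf (A0 (chevG E H F))
/-- field automorphisms inside `A0` -/
noncomputable def Fg : Subgroup (A0 (chevG E H F)) := ((fMon D F).range).subgroupOf (A0 (chevG E H F))

lemma mem_Dg {θ : A0 (chevG E H F)} : θ ∈ Dg H E ↔ ∃ c, IsDat H θ.1 1 c (fun _ => RingEquiv.refl F) := by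
  unfold Dg
  rw [Subgroup.mem_subgroupOf]
  constructor
  · rintro ⟨d, hd⟩
    rw [← hd]
    exact ⟨_, isDat_dHom H d⟩
  · rintro ⟨c, hc⟩
    obtain ⟨d, hd⟩ : ∃ d : Fin D.rank → Fˣ, ∀ i, (d i : F) = c i := ⟨fun i => Units.mk0 (c i) (hc i).1, fun i => rfl⟩
    refine ⟨d, ?_⟩
    have key : ((dHom H d : ↥(D.group F) ≃* ↥(D.group F)) : ↥(D.group F) →* ↥(D.group F)) =
        (θ.1 : ↥(D.group F) →* ↥(D.group F)) := by
      apply aut_ext H
      intro i hi t
      have h1 := (hc ⟨i, hi⟩).2 t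
      rw [← hd] at h1
      constructor
      · show dHom H d (xG H.toGood2 (D.simple i) t) = θ.1 (xG H.toGood2 (D.simple i) t)
        rw [h1.1]
        exact dHom_simple H d ⟨i, hi⟩ t
      · show dHom H d (xG H.toGood2 (D.neg (D.simple i)) t) = θ.1 (xG H.toGood2 (D.neg (D.simple i)) t)
        rw [h1.2]
        exact dHom_neg_simple H d ⟨i, hi⟩ t
    apply MulEquiv.ext
    intro y
    exact DFunLike.congr_fun key y

instance Dg_normal : (Dg H E (F := F)).Normal := by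
  constructor
  intro θ hθ γ
  rw [mem_Dg] at hθ ⊢
  obtain ⟨c, hc⟩ := hθ
  obtain ⟨c1, σ1, h1⟩ := permHom_dat H E γ
  obtain ⟨c2, σ2, h2⟩ := permHom_dat H E (γ * θ * γ⁻¹)
  have h3 := (h1.mul hc).mul h1.inv
  have h4 := h2.unique h3
  rw [h4.1, h4.2.2] at h2
  have h5 : permHom H E γ * 1 * (permHom H E γ)⁻¹ = 1 := by rw [mul_one, mul_inv_cancel]
  rw [h5] at h2
  refine ⟨c2, ?_⟩
  convert h2 using 2
  rename_i i
  ext t
  simp

lemma ker_permHom (hD : D ∈ types7) : (permHom H E (F := F)).ker = Dg H E ⊔ Fg H E := by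
  apply le_antisymm
  · intro θ hθ
    rw [MonoidHom.mem_ker] at hθ
    obtain ⟨c, σ, h⟩ := permHom_dat H E θ
    rw [hθ] at h
    obtain ⟨d, τ, h1⟩ := eq_field_diag hD H h
    have h2 : θ = ⟨dHom H d, puv_dHom E H d⟩ * ⟨fMon D F τ, puv_fAut E H τ⟩ := by
      apply Subtype.ext
      apply MulEquiv.ext
      intro y
      exact h1 y
    rw [h2]
    refine Subgroup.mul_mem_sup ?_ ?_
    · exact Subgroup.mem_subgroupOf.2 ⟨d, rfl⟩
    · exact Subgroup.mem_subgroupOf.2 ⟨τ, rfl⟩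
  · refine sup_le ?_ ?_
    · intro θ hθ
      rw [mem_Dg] at hθ
      obtain ⟨c, hc⟩ := hθ
      rw [MonoidHom.mem_ker]
      exact permHom_eq H E hc
    · intro θ hθ
      obtain ⟨τ, hτ⟩ := Subgroup.mem_subgroupOf.1 hθ
      rw [MonoidHom.mem_ker]
      refine permHom_eq H E (c := fun _ => 1) (σ := fun _ => τ) ?_
      have : (θ : MulAut ↥(D.group F)) = fMon D F τ := hτ.symm
      rw [this]
      exact isDat_fAut H τ

/-- the projection to the outer automorphism group -/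
noncomputable def outHom : A0 (chevG E H F) →* Cfsg.Out ↥(D.group F) :=
  (QuotientGroup.mk' (Cfsg.Inn ↥(D.group F))).comp (A0 (chevG E H F)).subtype

lemma outHom_surj (R : RootFacts D) : Function.Surjective (outHom H E (F := F)) := by
  intro x
  obtain ⟨θ, rfl⟩ := QuotientGroup.mk_surjective x
  obtain ⟨g, hg⟩ := exists_conj_puv E H R θ
  refine ⟨⟨MulAut.conj g * θ, hg⟩, ?_⟩
  show ((MulAut.conj g * θ : MulAut ↥(D.group F)) : Cfsg.Out ↥(D.group F)) = θ
  rw [QuotientGroup.mk_mul]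
  have : ((MulAut.conj g : MulAut ↥(D.group F)) : Cfsg.Out ↥(D.group F)) = 1 := (QuotientGroup.eq_one_iff _).2 ⟨g, rfl⟩
  rw [this, one_mul]

lemma ker_outHom (R : RootFacts D) : (outHom H E (F := F)).ker ≤ Dg H E := by
  rintro ⟨θ, hθ⟩ hk
  obtain ⟨g, hg⟩ : θ ∈ Cfsg.Inn ↥(D.group F) := (QuotientGroup.eq_one_iff _).1 hk
  subst hg
  have h1 : g ∈ (chevG E H F).H := (conj_mem_A0 (chevG_Grp E H)).1 hθ
  rw [chevG_H, Subgroup.mem_subgroupOf, diag_eq_range R H] at h1
  obtain ⟨c, hc⟩ := h1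
  refine Subgroup.mem_subgroupOf.2 ⟨mon (cmat D) c, ?_⟩
  apply MulEquiv.ext
  intro y
  apply Subtype.ext
  rw [dHom_coe]
  have h2 : (g : GL D.Idx F) = torHom D F (extHom D F (mon (cmat D) c)) := hc.symm
  rw [← h2]
  rfl

lemma range_permHom (hD : D ∈ types7) (ρ : Equiv.Perm (Fin D.rank)) :
    ρ ∈ (permHom H E (F := F)).range ↔ HasGraph E H F ρ := by
  constructor
  · rintro ⟨θ, rfl⟩
    obtain ⟨c, σ, h⟩ := permHom_dat H E θ
    exact exists_graph hD E H h
  · rintro ⟨g, -, h1, h2⟩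
    refine ⟨⟨g, h1⟩, ?_⟩
    obtain ⟨c, σ, h⟩ := permHom_dat H E ⟨g, h1⟩
    exact h.perm_eq fun i => ⟨1, 1, one_ne_zero, h2 i⟩

theorem index_eq (hD : D ∈ types7) (R : RootFacts D) :
    ((Dg H E (F := F) ⊔ Fg H E).map (outHom H E)).index = Nat.card {ρ : Equiv.Perm (Fin D.rank) // HasGraph E H F ρ} := by
  rw [Subgroup.index_map, MonoidHom.range_eq_top.2 (outHom_surj H E R), Subgroup.index_top, mul_one, ← ker_permHom H E hD]
  have h1 : (outHom H E (F := F)).ker ≤ (permHom H E (F := F)).ker :=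
    (ker_outHom H E R).trans (by rw [ker_permHom H E hD]; exact le_sup_left)
  rw [sup_eq_left.2 h1, Subgroup.index_ker]
  apply Nat.card_congr
  exact Equiv.subtypeEquivRight (range_permHom H E hD)

omit [Finite F] in
lemma two_perm : ∀ ρ : Equiv.Perm (Fin 2), ρ = 1 ∨ ρ = Equiv.swap 0 1 := by decide

omit [Finite F] in
lemma eq_rev4 {ρ : Equiv.Perm (Fin 4)} (h : ρ 0 = 3 ∧ ρ 1 = 2 ∧ ρ 2 = 1 ∧ ρ 3 = 0) : ρ = rev4 := by
  obtain ⟨a0, a1, a2, a3⟩ := h
  ext i; fin_cases i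
  · show ((ρ (0 : Fin 4) : Fin 4) : ℕ) = _; rw [a0]; rfl
  · show ((ρ (1 : Fin 4) : Fin 4) : ℕ) = _; rw [a1]; rfl
  · show ((ρ (2 : Fin 4) : Fin 4) : ℕ) = _; rw [a2]; rfl
  · show ((ρ (3 : Fin 4) : Fin 4) : ℕ) = _; rw [a3]; rfl

/-- the number of graph automorphisms -/
theorem card_graph (hD : D ∈ types7) : Nat.card {ρ : Equiv.Perm (Fin D.rank) // HasGraph E H F ρ} = 1 ∨
    Nat.card {ρ : Equiv.Perm (Fin D.rank) // HasGraph E H F ρ} = 2 ∨
    (Nat.card {ρ : Equiv.Perm (Fin D.rank) // HasGraph E H F ρ} = 6 ∧ ∃ ρ ρ', HasGraph E H F ρ ∧ HasGraph E H F ρ' ∧ ρ * ρ' ≠ ρ' * ρ) := by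
  have h2 : ∀ (D : ChevalleyDatum) (E : DData D) (H : Good D), (∃ r, ∀ ρ, HasGraph E H F ρ → ρ = 1 ∨ ρ = r) →
      Nat.card {ρ : Equiv.Perm (Fin D.rank) // HasGraph E H F ρ} = 1 ∨
      Nat.card {ρ : Equiv.Perm (Fin D.rank) // HasGraph E H F ρ} = 2 := by
    intro D E H ⟨r, hr⟩
    by_cases hr1 : HasGraph E H F r ∧ r ≠ 1
    · right
      apply card_sub_two hr1.2.symm
      intro x
      exact ⟨hr x, fun h => by rcases h with rfl | rfl; exacts [hasGraph_one E H F, hr1.1]⟩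
    · left
      apply card_sub_one (a := 1)
      intro x
      constructor
      · intro hx
        rcases hr x hx with h | h
        · exact h
        · by_contra h1
          apply hr1
          rw [← h]; exact ⟨hx, h1⟩
      · rintro rfl; exact hasGraph_one E H F
  simp only [types7, List.mem_cons, List.not_mem_nil, or_false] at hD
  rcases hD with rfl | rfl | rfl | rfl | rfl | rfl | rfl
  · rcases h2 _ E H ⟨(Equiv.swap 0 1 : Equiv.Perm (Fin 2)), fun ρ _ => two_perm ρ⟩ with h | h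
    · exact Or.inl h
    · exact Or.inr (Or.inl h)
  · rcases h2 _ E H ⟨(Equiv.swap 0 1 : Equiv.Perm (Fin 2)), fun ρ _ => two_perm ρ⟩ with h | h
    · exact Or.inl h
    · exact Or.inr (Or.inl h)
  · right; right
    constructor
    · have h3 : ∀ ρ : Equiv.Perm (Fin 4), HasGraph E H F (ρ : Equiv.Perm (Fin chevD4.rank)) ↔ ρ 1 = 1 := by
        intro ρ
        constructor
        · intro h
          obtain ⟨θ, c, σ, hd⟩ := h.dat
          exact rigid_D4 ρ (fun i j hij => hd.adj hij)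
        · intro h
          exact hasGraph_D4 E H F ρ h
      have h4 : Nat.card {ρ : Equiv.Perm (Fin 4) // ρ 1 = 1} = 6 := by
        rw [Nat.card_eq_fintype_card]; decide
      rw [← h4]
      exact Nat.card_congr (Equiv.subtypeEquivRight h3)
    · exact ⟨(Equiv.swap 0 2 : Equiv.Perm (Fin 4)), (Equiv.swap 2 3 : Equiv.Perm (Fin 4)),
        hasGraph_D4 E H F _ (by decide), hasGraph_D4 E H F _ (by decide), by
          intro h
          have h3 : (Equiv.swap 0 2 : Equiv.Perm (Fin 4)) * Equiv.swap 2 3 = Equiv.swap 2 3 * Equiv.swap 0 2 := h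
          revert h3; decide⟩
  · rcases h2 _ E H ⟨rev4, fun ρ hρ => by
      obtain ⟨θ, c, σ, hd⟩ := hρ.dat
      rcases rigid_F4 ρ (fun i j hij => hd.adj hij) with h1 | h1
      · exact Or.inl h1
      · exact Or.inr (eq_rev4 h1)⟩ with h | h
    · exact Or.inl h
    · exact Or.inr (Or.inl h)
  · exact Or.inr (Or.inl (card_E6 E H))
  · exact Or.inl (card_E7 E H)
  · exact Or.inl (card_E8 E H)

/-- closure of the diagonal automorphisms -/
lemma closure_diag (R : RootFacts D) : Subgroup.closure {φ : MulAut ↥(D.group F) | D.IsDiagonalAut φ} = (dHom H (F := F)).range := by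
  have : {φ : MulAut ↥(D.group F) | D.IsDiagonalAut φ} = ((dHom H (F := F)).range : Set (MulAut ↥(D.group F))) := by
    ext φ
    rw [Set.mem_ofPred_eq, isDiagonalAut_iff H R]
    exact ⟨fun ⟨c, h⟩ => ⟨c, h.symm⟩, fun ⟨c, h⟩ => ⟨c, h.symm⟩⟩
  rw [this, Subgroup.closure_eq]

include H in
lemma closure_field : Subgroup.closure {φ : MulAut ↥(D.group F) | D.IsFieldAut φ} = (fMon D F).range := by
  have : {φ : MulAut ↥(D.group F) | D.IsFieldAut φ} = ((fMon D F).range : Set (MulAut ↥(D.group F))) := by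
    ext φ
    rw [Set.mem_ofPred_eq, isFieldAut_iff H]
    exact ⟨fun ⟨c, h⟩ => ⟨c, h.symm⟩, fun ⟨c, h⟩ => ⟨c, h.symm⟩⟩
  rw [this, Subgroup.closure_eq]

omit [Finite F] in
lemma isCyclic_ringAut [Finite F] : IsCyclic (F ≃+* F) := by
  obtain ⟨p, hp⟩ := CharP.exists F
  have : Fact p.Prime := ⟨CharP.char_is_prime F p⟩
  let _ : Algebra (ZMod p) F := ZMod.algebra F p
  have hc : IsCyclic (F ≃ₐ[ZMod p] F) := inferInstance
  refine isCyclic_of_surjective (⟨⟨fun σ : F ≃ₐ[ZMod p] F => σ.toRingEquiv, rfl⟩, fun _ _ => rfl⟩ : (F ≃ₐ[ZMod p] F) →* (F ≃+* F)) ?_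
  intro σ
  refine ⟨AlgEquiv.ofRingEquiv (f := σ) fun r => ?_, rfl⟩
  exact RingHom.congr_fun (Subsingleton.elim ((σ : F →+* F).comp (algebraMap (ZMod p) F))
      (algebraMap (ZMod p) F)) r

end

open scoped commutatorElement in
/-- S2159 -/
theorem out_structure {F : Type*} [Field F] [Finite F] (D : Cfsg.Lie.ChevalleyDatum) (hD : D ∈ types7)
    (Dbar Fbar : Subgroup (Cfsg.Out ↥(D.group F)))
    (hDbar : Dbar = (Subgroup.closure {φ : MulAut ↥(D.group F) | D.IsDiagonalAut φ}).map (QuotientGroup.mk' (Cfsg.Inn ↥(D.group F))))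
    (hFbar : Fbar = (Subgroup.closure {φ : MulAut ↥(D.group F) | D.IsFieldAut φ}).map (QuotientGroup.mk' (Cfsg.Inn ↥(D.group F)))) :
    Dbar.Normal ∧ IsMulCommutative ↥Dbar ∧ IsCyclic ↥Fbar ∧ (Dbar ⊔ Fbar).Normal ∧
      ((Dbar ⊔ Fbar).index = 1 ∨ (Dbar ⊔ Fbar).index = 2 ∨
        ((Dbar ⊔ Fbar).index = 6 ∧ ¬ commutator (Cfsg.Out ↥(D.group F)) ≤ Dbar ⊔ Fbar)) := by
  have H := good_of_mem hD
  obtain ⟨E⟩ := DData.nonempty_of_mem hD
  obtain ⟨R⟩ := nonempty_rootFacts hD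
  rw [closure_diag H R] at hDbar
  rw [closure_field H] at hFbar
  have hD1 : Dbar = (Dg H E).map (outHom H E) := by
    rw [hDbar, outHom, ← Subgroup.map_map]
    congr 1
    unfold Dg
    rw [Subgroup.map_subgroupOf_eq_of_le]
    rintro _ ⟨d, rfl⟩
    exact puv_dHom E H d
  have hF1 : Fbar = (Fg H E).map (outHom H E) := by
    rw [hFbar, outHom, ← Subgroup.map_map]
    congr 1
    unfold Fg
    rw [Subgroup.map_subgroupOf_eq_of_le]
    rintro _ ⟨d, rfl⟩
    exact puv_fAut E H d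
  have hDF : Dbar ⊔ Fbar = (Dg H E ⊔ Fg H E).map (outHom H E) := by
    rw [hD1, hF1, Subgroup.map_sup]
  have hsurj := outHom_surj H E (F := F) R
  refine ⟨?_, ?_, ?_, ?_, ?_⟩
  · rw [hD1]
    exact Subgroup.Normal.map (Dg_normal H E) _ hsurj
  · rw [hDbar]
    have : IsMulCommutative ↥((dHom H (F := F)).range) := by
      constructor
      constructor
      rintro ⟨_, a, rfl⟩ ⟨_, b, rfl⟩
      apply Subtype.ext
      show dHom H a * dHom H b = dHom H b * dHom H a
      rw [← map_mul, mul_comm, map_mul]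
    exact Subgroup.map_isMulCommutative _ _
  · rw [hFbar]
    have h1 := isCyclic_ringAut (F := F)
    have h2 : IsCyclic ↥((fMon D F).range) := isCyclic_of_surjective (fMon D F).rangeRestrict (fMon D F).rangeRestrict_surjective
    exact isCyclic_of_surjective ((QuotientGroup.mk' (Cfsg.Inn ↥(D.group F))).subgroupMap _)
      (MonoidHom.subgroupMap_surjective _ _)
  · rw [hDF, ← ker_permHom H E hD]
    exact Subgroup.Normal.map inferInstance _ hsurj
  · rw [hDF, index_eq H E hD R]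
    rcases card_graph H E (F := F) hD with h | h | ⟨h, ρ, ρ', h1, h2, h3⟩
    · exact Or.inl h
    · exact Or.inr (Or.inl h)
    · refine Or.inr (Or.inr ⟨h, fun hle => h3 ?_⟩)
      obtain ⟨a, ha⟩ := (range_permHom H E hD ρ).2 h1
      obtain ⟨b, hb⟩ := (range_permHom H E hD ρ').2 h2
      have h4 : outHom H E ⁅a, b⁆ ∈ (Dg H E ⊔ Fg H E).map (outHom H E) := by
        apply hle
        rw [map_commutatorElement]
        exact Subgroup.commutator_mem_commutator (Subgroup.mem_top _) (Subgroup.mem_top _)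
      obtain ⟨c, hc, hc2⟩ := h4
      have h5 : c⁻¹ * ⁅a, b⁆ ∈ (permHom H E (F := F)).ker := by
        have h6 : c⁻¹ * ⁅a, b⁆ ∈ (outHom H E (F := F)).ker := by
          rw [MonoidHom.mem_ker, map_mul, map_inv, hc2, inv_mul_cancel]
        rw [ker_permHom H E hD]
        exact le_sup_left (a := Dg H E) (ker_outHom H E R h6)
      rw [← ker_permHom H E hD] at hc
      have h6 : ⁅a, b⁆ ∈ (permHom H E (F := F)).ker := by
        have := mul_mem hc h5
        rwa [mul_inv_cancel_left] at this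
      rw [MonoidHom.mem_ker, map_commutatorElement, ha, hb, commutatorElement_eq_one_iff_mul_comm] at h6
      exact h6

end Cfsg.Agent.AutChev
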